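import Mathlib
import Cfsg.Agent.Lib.Helper77.NF3.Defs
import Cfsg.Agent.S0687

/-!
# NF3 (S0689 core, helper77): package [FLD], Schur + little Wedderburn
-/

set_option autoImplicit false

namespace Cfsg.Agent.Lib.Helper32.NF3

open Cfsg.Agent.Lib.Helper77.NF3

universe u

section fld

variable {p : ℕ} [Fact p.Prime] {V : Type u} [AddCommGroup V] [Module (ZMod p) V] [Finite V]

/-- the centralizer ring of the image of `N` in `End V` -/
def centRing (H : Subgroup (V ≃ₗ[ZMod p] V)) (N : Subgroup H) :
    Subring (Module.End (ZMod p) V) :=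
  Subring.centralizer
    {f : Module.End (ZMod p) V | ∃ n : H, n ∈ N ∧ f = (n.1 : V ≃ₗ[ZMod p] V).toLinearMap}

theorem mem_centRing (H : Subgroup (V ≃ₗ[ZMod p] V)) (N : Subgroup H)
    (f : Module.End (ZMod p) V) :
    f ∈ centRing H N ↔ ∀ n : H, n ∈ N → ∀ v : V, (n.1 : V ≃ₗ[ZMod p] V) (f v) = f ((n.1 : V ≃ₗ[ZMod p] V) v) := by
  unfold centRing
  rw [Subring.mem_centralizer_iff]
  constructor
  · intro h n hn v
    have := h _ ⟨n, hn, rfl⟩
    have h2 := congrArg (fun g : Module.End (ZMod p) V => g v) this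
    simpa using h2
  · rintro h g ⟨n, hn, rfl⟩
    ext v
    simpa using h n hn v

theorem centRing_finite (H : Subgroup (V ≃ₗ[ZMod p] V)) (N : Subgroup H) :
    Finite (centRing H N) := by
  haveI := Cfsg.Agent.S0684.finite_end (p := p) (V := V)
  infer_instance

/-- Schur: a non-zero element of the centralizer ring is injective -/
theorem centRing_injective (H : Subgroup (V ≃ₗ[ZMod p] V))
    (hreg : ∀ v w : V, v ≠ 0 → w ≠ 0 → ∃! h : H, (h : V ≃ₗ[ZMod p] V) v = w)
    (N : Subgroup H) (hNn : N.Normal) (hNna : ¬ IsMulCommutative N)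
    (f : Module.End (ZMod p) V) (hf : f ∈ centRing H N) (hf0 : f ≠ 0) :
    Function.Injective f := by
  have hker : LinearMap.ker f = ⊥ ∨ LinearMap.ker f = ⊤ := by
    apply Cfsg.Agent.S0687.irreducible_of_normal H hreg N hNn hNna
    intro n hn v hv
    rw [LinearMap.mem_ker] at hv ⊢
    rw [← (mem_centRing H N f).1 hf n hn v, hv, map_zero]
  rcases hker with h | h
  · exact LinearMap.ker_eq_bot.1 h
  · exact absurd (LinearMap.ker_eq_top.1 h) hf0

theorem nontrivial_of_not_comm (H : Subgroup (V ≃ₗ[ZMod p] V))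
    (N : Subgroup H) (hNna : ¬ IsMulCommutative N) : Nontrivial V := by
  by_contra hcon
  rw [not_nontrivial_iff_subsingleton] at hcon
  apply hNna
  refine ⟨⟨fun a b => ?_⟩⟩
  have : ∀ x y : N, x = y := by
    intro x y
    apply Subtype.ext
    apply Subtype.ext
    ext v
    exact Subsingleton.elim _ _
  exact this _ _

theorem centRing_isDomain (H : Subgroup (V ≃ₗ[ZMod p] V))
    (hreg : ∀ v w : V, v ≠ 0 → w ≠ 0 → ∃! h : H, (h : V ≃ₗ[ZMod p] V) v = w)
    (N : Subgroup H) (hNn : N.Normal) (hNna : ¬ IsMulCommutative N) :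
    IsDomain (centRing H N) := by
  haveI : Nontrivial V := nontrivial_of_not_comm H N hNna
  haveI : Nontrivial (centRing H N) := by
    refine ⟨⟨0, 1, ?_⟩⟩
    intro h
    obtain ⟨v, hv⟩ := exists_ne (0 : V)
    have h2 := congrArg (fun g : centRing H N => (g : Module.End (ZMod p) V) v) h
    simp at h2
    exact hv h2.symm
  haveI : NoZeroDivisors (centRing H N) := by
    refine ⟨?_⟩
    intro a b hab
    by_cases ha : a = 0
    · exact Or.inl ha
    · right
      have ha' : (a : Module.End (ZMod p) V) ≠ 0 := fun h => ha (Subtype.ext h)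
      have hinj := centRing_injective H hreg N hNn hNna a.1 a.2 ha'
      apply Subtype.ext
      ext v
      apply hinj
      have h2 := congrArg (fun g : centRing H N => (g : Module.End (ZMod p) V) v) hab
      simpa using h2
  exact NoZeroDivisors.to_isDomain _

end fld

/-- **[FLD]** -/
theorem pkgFld : PkgFld.{u} := by
  intro p _ V _ _ _ H hreg N hNn hNna
  classical
  haveI : Finite (centRing H N) := centRing_finite H N
  haveI : IsDomain (centRing H N) := centRing_isDomain H hreg N hNn hNna
  letI : Fintype (centRing H N) := Fintype.ofFinite _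
  refine ⟨centRing H N,
    @littleWedderburn (centRing H N) (Fintype.divisionRingOfIsDomain (centRing H N)) _,
    inferInstance, (inferInstance : Module (centRing H N) V), ?_, ?_⟩
  · intro n hn a v
    exact (mem_centRing H N a.1).1 a.2 n hn v
  · intro c hc
    have hc' : ((c.1 : V ≃ₗ[ZMod p] V).toLinearMap : Module.End (ZMod p) V) ∈ centRing H N := by
      rw [mem_centRing]
      intro n hn v
      have h1 := (Subgroup.mem_centralizer_iff.1 hc) n hn
      have h2 := congrArg (fun g : H => (g.1 : V ≃ₗ[ZMod p] V) v) h1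
      simpa using h2
    exact ⟨⟨_, hc'⟩, fun v => rfl⟩
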