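import Mathlib
import Cfsg.Agent.Lib.Helper77.NF3.Defs

/-!
# NF3 (S0689 core, helper77): package [NUM], the arithmetic
-/

set_option autoImplicit false

namespace Cfsg.Agent.Lib.Helper32.NF3

open Cfsg.Agent.Lib.Helper77.NF3

/-- **[NUM]** -/
theorem pkgNum : PkgNum := by
  intro p q d c e n hp hd hpow hc he hqd h2 h3
  have he0 : 0 < e := by rcases he with rfl | rfl <;> norm_num
  have he120 : e ≤ 120 := by rcases he with rfl | rfl <;> norm_num
  have hc0 : c ≠ 0 := by
    rintro rfl
    exact h3 (dvd_zero 3)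
  have hq0 : q ≠ 0 := by
    rintro rfl
    rw [zero_pow (by omega)] at hpow
    exact (pow_pos hp.pos n).ne hpow
  have hq1 : q ≠ 1 := by
    rintro rfl
    rw [one_pow] at hqd
    have h0 : c * e = 0 := by omega
    rcases Nat.mul_eq_zero.1 h0 with h | h
    · exact hc0 h
    · omega
  have hq2 : 2 ≤ q := by omega
  have hcq : c ≤ q - 1 := Nat.le_of_dvd (by omega) hc
  -- `119` is not a prime power
  have h119 : d = 2 → q ≠ 119 := by
    rintro rfl rfl
    have h7 : 7 ∣ p ^ n := by rw [← hpow]; norm_num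
    have h17 : 17 ∣ p ^ n := by rw [← hpow]; norm_num
    have e7 : 7 = p :=
      (Nat.prime_dvd_prime_iff_eq (by norm_num) hp).1
        ((by norm_num : Nat.Prime 7).dvd_of_dvd_pow h7)
    have e17 : 17 = p :=
      (Nat.prime_dvd_prime_iff_eq (by norm_num) hp).1
        ((by norm_num : Nat.Prime 17).dvd_of_dvd_pow h17)
    omega
  -- the bound `q ^ (d - 1) < 120`
  have hb : q ^ (d - 1) < 120 := by
    by_contra hcon
    push Not at hcon
    have h1 : c * e ≤ (q - 1) * 120 := Nat.mul_le_mul hcq he120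
    have h4 : q ^ d = q * q ^ (d - 1) := by
      rw [← pow_succ', Nat.sub_add_cancel (by omega)]
    have h5 : q * 120 ≤ q * q ^ (d - 1) := Nat.mul_le_mul_left q hcon
    have h6 : 1 ≤ q ^ d := Nat.one_le_pow _ _ (by omega)
    omega
  have hd7 : d ≤ 7 := by
    by_contra hcon
    push Not at hcon
    have h1 : 2 ^ (d - 1) ≤ q ^ (d - 1) := Nat.pow_le_pow_left hq2 _
    have h4 : 2 ^ 7 ≤ 2 ^ (d - 1) := Nat.pow_le_pow_right (by norm_num) (by omega)
    norm_num at h4
    omega
  have hq10 : 3 ≤ d → q ≤ 10 := by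
    intro h3d
    by_contra hcon
    push Not at hcon
    have h1 : 11 ^ 2 ≤ q ^ 2 := Nat.pow_le_pow_left hcon 2
    have h4 : q ^ 2 ≤ q ^ (d - 1) := Nat.pow_le_pow_right (by omega) (by omega)
    norm_num at h1
    omega
  interval_cases d
  · -- `d = 2`
    obtain ⟨t, ht⟩ := hc
    have hq119 := h119 rfl
    have hsq : q ^ 2 - 1 = (q - 1) * (q + 1) := by
      obtain ⟨k, rfl⟩ : ∃ k, q = k + 1 := ⟨q - 1, by omega⟩
      rw [Nat.add_sub_cancel]
      have h1 : (k + 1) ^ 2 = k * (k + 1 + 1) + 1 := by ring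
      omega
    have hte : t * (q + 1) = e := by
      have h5 : c * (t * (q + 1)) = c * e := by
        rw [← hqd, hsq, ht]
        ring
      exact Nat.eq_of_mul_eq_mul_left (Nat.pos_of_ne_zero hc0) h5
    have ht0 : 0 < t := by
      rcases Nat.eq_zero_or_pos t with h | h
      · rw [h] at hte
        omega
      · exact h
    have ht40 : t ≤ 40 := by
      by_contra hcon
      push Not at hcon
      have h1 : 41 * (q + 1) ≤ t * (q + 1) := Nat.mul_le_mul_right _ hcon
      omega
    rcases he with rfl | rfl <;> interval_cases t <;> omega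
  all_goals
    have hq10' := hq10 (by norm_num)
    rcases he with rfl | rfl <;> interval_cases q <;> norm_num at hqd <;> omega

end Cfsg.Agent.Lib.Helper32.NF3
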